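import Cfsg.Agent.H28.JordanCore
import Cfsg.Agent.H28.CharCenter

/-! Blichfeldt's lemma: an element of a finite unitary group all of whose eigenvalues are at
distance `< 1` from one of them. -/

set_option autoImplicit false

open Cfsg Representation
open scoped ComplexConjugate InnerProductSpace

namespace H14
open _root_.H28

section Geo

variable {Γ E : Type*} [Group Γ] [NormedAddCommGroup E] [InnerProductSpace ℂ E]

/-- The conjugates of `s` fixing `v`. -/
def blS (τ : Representation ℂ Γ E) (s : Γ) (v : E) : Set Γ := {t | IsConj s t ∧ τ t v = v}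

/-- The common fixed space of the conjugates of `s` fixing `v`. -/
def blU (τ : Representation ℂ Γ E) (s : Γ) (v : E) : Submodule ℂ E where
  carrier := {w | ∀ t ∈ blS τ s v, τ t w = w}
  add_mem' := fun {a b} ha hb t ht => by rw [map_add, ha t ht, hb t ht]
  zero_mem' := fun t _ => map_zero _
  smul_mem' := fun c a ha t ht => by rw [map_smul, ha t ht]

theorem mem_blU {τ : Representation ℂ Γ E} {s : Γ} {v w : E} :
    w ∈ blU τ s v ↔ ∀ t ∈ blS τ s v, τ t w = w := Iff.rfl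

theorem self_mem_blU (τ : Representation ℂ Γ E) (s : Γ) (v : E) : v ∈ blU τ s v :=
  fun _ ht => ht.2

theorem rep_mul_apply (τ : Representation ℂ Γ E) (a b : Γ) (v : E) :
    τ (a * b) v = τ a (τ b v) := by rw [map_mul]; rfl

theorem conj_mem_blS {τ : Representation ℂ Γ E} {s g t : Γ} {v : E} (ht : t ∈ blS τ s v) :
    g * t * g⁻¹ ∈ blS τ s (τ g v) := by
  refine ⟨ht.1.trans (isConj_iff.2 ⟨g, rfl⟩), ?_⟩
  rw [← rep_mul_apply, inv_mul_cancel_right, rep_mul_apply, ht.2]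

theorem ncard_blS_le [Finite Γ] (τ : Representation ℂ Γ E) (s g : Γ) (v : E) :
    (blS τ s v).ncard ≤ (blS τ s (τ g v)).ncard :=
  Set.ncard_le_ncard_of_injOn (fun t => g * t * g⁻¹) (fun _ ht => conj_mem_blS ht)
    (fun a _ b _ h => by simpa using h) (Set.toFinite _)

theorem map_mem_blU {τ : Representation ℂ Γ E} {s : Γ} (g : Γ) {v w : E} (hw : w ∈ blU τ s v) :
    τ g w ∈ blU τ s (τ g v) := by
  intro t ht
  have h1 := conj_mem_blS (g := g⁻¹) ht
  rw [← rep_mul_apply, inv_mul_cancel, map_one, Module.End.one_apply] at h1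
  have h2 := congrArg (τ g) (hw _ h1)
  rw [← rep_mul_apply, show g * (g⁻¹ * t * g⁻¹⁻¹) = t * g by group, rep_mul_apply] at h2
  exact h2

/-- A nonzero vector fixed by as many conjugates of `s` as possible. -/
def BlMax (τ : Representation ℂ Γ E) (s : Γ) (v : E) : Prop :=
  v ≠ 0 ∧ ∀ w : E, w ≠ 0 → (blS τ s w).ncard ≤ (blS τ s v).ncard

theorem rep_ne_zero (τ : Representation ℂ Γ E) (g : Γ) {v : E} (hv : v ≠ 0) : τ g v ≠ 0 := by
  intro h
  apply hv
  have := congrArg (τ g⁻¹) h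
  rwa [← rep_mul_apply, inv_mul_cancel, map_one, Module.End.one_apply, map_zero] at this

theorem BlMax.map [Finite Γ] {τ : Representation ℂ Γ E} {s : Γ} {v : E} (h : BlMax τ s v) (g : Γ) :
    BlMax τ s (τ g v) :=
  ⟨rep_ne_zero τ g h.1, fun w hw => (h.2 w hw).trans (ncard_blS_le τ s g v)⟩

theorem BlMax.blS_eq [Finite Γ] {τ : Representation ℂ Γ E} {s : Γ} {v w : E} (h : BlMax τ s v)
    (hw : w ∈ blU τ s v) (h0 : w ≠ 0) : blS τ s w = blS τ s v :=
  (Set.eq_of_subset_of_ncard_le (s := blS τ s v) (t := blS τ s w)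
    (fun t ht => And.intro ht.1 (hw t ht)) (h.2 w h0) (Set.toFinite _)).symm

theorem blU_congr {τ : Representation ℂ Γ E} {s : Γ} {v w : E} (h : blS τ s w = blS τ s v) :
    blU τ s w = blU τ s v := by
  ext x
  rw [mem_blU, mem_blU, h]

theorem BlMax.stab [Finite Γ] {τ : Representation ℂ Γ E} {s : Γ} {v : E} (h : BlMax τ s v) {g : Γ}
    (hg : τ g v ∈ blU τ s v) : ∀ x ∈ blU τ s v, τ g x ∈ blU τ s v := by
  intro x hx
  have := map_mem_blU g hx
  rwa [blU_congr (h.blS_eq hg (rep_ne_zero τ g h.1))] at this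

theorem close_of_isConj {τ : Representation ℂ Γ E} (hτ : ∀ g v, ‖τ g v‖ = ‖v‖) {s : Γ}
    (hs : ∀ v, v ≠ 0 → ‖τ s v - v‖ < ‖v‖) {t : Γ} (ht : IsConj s t) {v : E} (hv : v ≠ 0) :
    ‖τ t v - v‖ < ‖v‖ := by
  obtain ⟨g, rfl⟩ := isConj_iff.1 ht
  have h1 := hs _ (rep_ne_zero τ g⁻¹ hv)
  rw [hτ] at h1
  rw [← hτ g⁻¹, map_sub, ← rep_mul_apply, ← mul_assoc, ← mul_assoc,
    inv_mul_cancel, one_mul]
  rwa [← rep_mul_apply] at h1

theorem inner_rep {τ : Representation ℂ Γ E} (hτ : ∀ g v, ‖τ g v‖ = ‖v‖) (g : Γ) (x y : E) :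
    ⟪τ g x, τ g y⟫_ℂ = ⟪x, y⟫_ℂ :=
  (LinearIsometry.mk (τ g) (hτ g)).inner_map_map x y

/-- Blichfeldt's lemma, geometric part. -/
theorem blich_geo [Finite Γ] [FiniteDimensional ℂ E] (τ : Representation ℂ Γ E)
    (hτ : ∀ g v, ‖τ g v‖ = ‖v‖) (s : Γ) (hs : ∀ v, v ≠ 0 → ‖τ s v - v‖ < ‖v‖) {v₀ : E}
    (hv₀ : v₀ ≠ 0) (hfix : τ s v₀ = v₀) :
    ∃ U : Submodule ℂ E, U ≠ ⊥ ∧ (∀ t, IsConj s t → ∀ x ∈ U, τ t x ∈ U) ∧
      ∃ t, IsConj s t ∧ ∀ x ∈ U, τ t x = x := by
  classical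
  have := Fintype.ofFinite Γ
  obtain ⟨v, hv⟩ : ∃ v, BlMax τ s v := by
    have hb : BddAbove (Set.range fun w : {w : E // w ≠ 0} => (blS τ s w.1).ncard) :=
      ⟨Nat.card Γ, by
        rintro _ ⟨w, rfl⟩
        exact Set.ncard_le_card _⟩
    have : Nonempty {w : E // w ≠ 0} := ⟨⟨v₀, hv₀⟩⟩
    obtain ⟨w, hw⟩ := Nat.sSup_mem (Set.range_nonempty _) hb
    refine ⟨w.1, w.2, fun x hx => ?_⟩
    have := le_csSup hb ⟨⟨x, hx⟩, rfl⟩
    rwa [← hw] at this
  refine ⟨blU τ s v, ?_, ?_, ?_⟩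
  · intro h
    have := self_mem_blU τ s v
    rw [h] at this
    exact hv.1 this
  · intro t ht
    refine hv.stab ?_
    by_contra hnot
    obtain ⟨g, hg, hmin⟩ := Finset.exists_min_image
      (Finset.univ.filter fun g : Γ => τ g v ∉ blU τ s v) (fun g => ‖τ g v - v‖)
      ⟨t, by simpa using hnot⟩
    simp only [Finset.mem_filter, Finset.mem_univ, true_and] at hg hmin
    have hne : τ g v - v ≠ 0 := fun h => hg (by
      rw [sub_eq_zero.1 h]; exact self_mem_blU τ s v)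
    obtain ⟨r, hr, hrw⟩ : ∃ r ∈ blS τ s v, τ r (τ g v) ≠ τ g v := by
      by_contra h
      push Not at h
      exact hg h
    have h1 : τ (g⁻¹ * r * g) v ∈ blU τ s v := by
      by_contra h
      have h2 := hmin _ h
      have h3 := close_of_isConj hτ hs hr.1 hne
      rw [map_sub, hr.2, sub_sub_sub_cancel_right] at h3
      rw [← hτ g (τ (g⁻¹ * r * g) v - v), map_sub, ← rep_mul_apply, ← mul_assoc, ← mul_assoc,
        mul_inv_cancel, one_mul, rep_mul_apply] at h2
      exact absurd h3 (not_lt.2 h2)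
    have hw := hv.map g
    have h2 : τ r (τ g v) ∈ blU τ s (τ g v) := by
      have := map_mem_blU g h1
      rwa [← rep_mul_apply, ← mul_assoc, ← mul_assoc, mul_inv_cancel, one_mul,
        rep_mul_apply] at this
    have h3 := hw.stab h2
    set W := blU τ s (τ g v) with hW
    let f : W →ₗ[ℂ] W := (τ r - 1).restrict fun x hx => by
      simpa using W.sub_mem (h3 x hx) hx
    have hf : ∀ x : W, (f x : E) = τ r x - x := fun x => rfl
    have hinj : Function.Injective f := by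
      rw [injective_iff_map_eq_zero]
      intro x hx
      by_contra h0
      have h0' : (x : E) ≠ 0 := fun h => h0 (Subtype.ext h)
      have h4 : τ r x = x := by
        have := congrArg Subtype.val hx
        rw [hf] at this
        exact sub_eq_zero.1 this
      have h5 : r ∈ blS τ s (x : E) := ⟨hr.1, h4⟩
      rw [hw.blS_eq x.2 h0'] at h5
      exact hrw h5.2
    obtain ⟨x, hx⟩ := LinearMap.injective_iff_surjective.1 hinj ⟨_, self_mem_blU τ s (τ g v)⟩
    have h6 : τ g v = τ r x - x := by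
      have := congrArg Subtype.val hx
      rw [hf] at this
      exact this.symm
    have h7 : ⟪v, τ g v⟫_ℂ = 0 := by
      rw [h6, inner_sub_right]
      conv_lhs => rw [← hr.2]
      rw [inner_rep hτ, hr.2, sub_self]
    have h8 : ‖v‖ ≤ ‖τ g v - v‖ := by
      have h9 := norm_sub_sq (𝕜 := ℂ) v (τ g v)
      rw [h7, map_zero, mul_zero, sub_zero, norm_sub_rev] at h9
      exact le_of_sq_le_sq (by rw [h9]; nlinarith [sq_nonneg ‖τ g v‖]) (norm_nonneg _)
    exact absurd (close_of_isConj hτ hs ht hv.1) (not_lt.2 (h8.trans (hmin t hnot)))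
  · have h1 : 0 < (blS τ s v).ncard := by
      refine lt_of_lt_of_le ?_ (hv.2 v₀ hv₀)
      exact (Set.ncard_pos (Set.toFinite _)).2 ⟨s, IsConj.refl s, hfix⟩
    obtain ⟨t, ht⟩ := (Set.ncard_pos (Set.toFinite _)).1 h1
    exact ⟨t, ht.1, fun x hx => hx t ht⟩

end Geo

section Arc

/-- The number of the arc of length `π / 3` containing the argument of `z`. -/
noncomputable def arcSix (z : ℂ) : Fin 6 :=
  ⟨(⌈3 * z.arg / Real.pi⌉ + 2).toNat, by
    have h1 : 3 * z.arg / Real.pi ≤ 3 := by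
      rw [div_le_iff₀ Real.pi_pos]; linarith [Complex.arg_le_pi z]
    have h2 : ⌈3 * z.arg / Real.pi⌉ ≤ 3 := Int.ceil_le.2 (by exact_mod_cast h1)
    omega⟩

theorem re_gt_of_arcSix_eq {z w : ℂ} (hz : ‖z‖ = 1) (hw : ‖w‖ = 1) (h : arcSix z = arcSix w) :
    1 / 2 < (z⁻¹ * w).re := by
  have hlow : ∀ u : ℂ, -3 < ⌈3 * u.arg / Real.pi⌉ := fun u => by
    rw [Int.lt_ceil, lt_div_iff₀ Real.pi_pos]
    push_cast
    linarith [Complex.neg_pi_lt_arg u]
  have h1 : ⌈3 * z.arg / Real.pi⌉ = ⌈3 * w.arg / Real.pi⌉ := by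
    have := congrArg Fin.val h
    simp only [arcSix] at this
    have := hlow z
    have := hlow w
    omega
  have h2 : |3 * z.arg / Real.pi - 3 * w.arg / Real.pi| < 1 := by
    have a1 := Int.le_ceil (3 * z.arg / Real.pi)
    have a2 := Int.ceil_lt_add_one (3 * z.arg / Real.pi)
    have a3 := Int.le_ceil (3 * w.arg / Real.pi)
    have a4 := Int.ceil_lt_add_one (3 * w.arg / Real.pi)
    rw [h1] at a1 a2
    rw [abs_lt]; constructor <;> linarith
  have h3 : |w.arg - z.arg| < Real.pi / 3 := by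
    rw [← sub_div, ← mul_sub, abs_div, abs_mul, abs_of_pos Real.pi_pos,
      div_lt_one Real.pi_pos, abs_of_pos (by norm_num : (0 : ℝ) < 3)] at h2
    rw [abs_sub_comm]; linarith
  have hz' := Complex.norm_mul_exp_arg_mul_I z
  have hw' := Complex.norm_mul_exp_arg_mul_I w
  rw [hz, Complex.ofReal_one, one_mul] at hz'
  rw [hw, Complex.ofReal_one, one_mul] at hw'
  have h4 : z⁻¹ * w = Complex.exp (((w.arg - z.arg : ℝ) : ℂ) * Complex.I) := by
    conv_lhs => rw [← hz', ← hw']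
    rw [← Complex.exp_neg, ← Complex.exp_add]
    congr 1
    push_cast; ring
  rw [h4, Complex.exp_ofReal_mul_I_re, ← Real.cos_abs, ← Real.cos_pi_div_three]
  exact Real.cos_lt_cos_of_nonneg_of_le_pi (abs_nonneg _) (by linarith [Real.pi_pos]) h3

theorem norm_sub_one_lt_of_re {μ : ℂ} (h1 : ‖μ‖ = 1) (h : 1 / 2 < μ.re) : ‖μ - 1‖ < 1 := by
  have h2 : μ.re * μ.re + μ.im * μ.im = 1 := by
    rw [← Complex.normSq_apply, Complex.normSq_eq_norm_sq, h1]; norm_num
  refine lt_of_pow_lt_pow_left₀ 2 zero_le_one ?_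
  rw [← Complex.normSq_eq_norm_sq, Complex.normSq_apply]
  simp only [Complex.sub_re, Complex.one_re, Complex.sub_im, Complex.one_im, sub_zero]
  nlinarith

theorem norm_hom_eq_one {A : Type*} [Group A] [Finite A] (lam : A →* ℂˣ) (a : A) :
    ‖(lam a : ℂ)‖ = 1 := by
  have h : (lam a : ℂ) ^ orderOf a = 1 := by
    rw [← Units.val_pow_eq_pow_val, ← map_pow, pow_orderOf_eq_one, map_one, Units.val_one]
  exact Complex.norm_eq_one_of_pow_eq_one h (orderOf_pos a).ne'

/-- Pigeonhole: some nontrivial element has all values close to the value of `lam₀`. -/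
theorem exists_close {A : Type*} [Group A] [Finite A] (Λ : Finset (A →* ℂˣ)) {lam₀ : A →* ℂˣ}
    (h0 : lam₀ ∈ Λ) (hc : 6 ^ (Λ.card - 1) < Nat.card A) :
    ∃ a : A, a ≠ 1 ∧ ∀ lam ∈ Λ, ‖(lam a : ℂ) * (lam₀ a : ℂ)⁻¹ - 1‖ < 1 := by
  classical
  have := Fintype.ofFinite A
  let F : A → (Λ.erase lam₀ → Fin 6) := fun a lam => arcSix ((lam.1 a : ℂ) * (lam₀ a : ℂ)⁻¹)
  obtain ⟨a, b, hab, hF⟩ := Fintype.exists_ne_map_eq_of_card_lt F (by
    rw [Fintype.card_fun, Fintype.card_fin, Fintype.card_coe, Finset.card_erase_of_mem h0,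
      ← Nat.card_eq_fintype_card]
    exact hc)
  refine ⟨a⁻¹ * b, fun h => hab (inv_mul_eq_one.1 h), fun lam hl => ?_⟩
  by_cases h1 : lam = lam₀
  · rw [h1, mul_inv_cancel₀ (Units.ne_zero _), sub_self, norm_zero]
    exact one_pos
  have hn : ∀ x : A, ‖(lam x : ℂ) * (lam₀ x : ℂ)⁻¹‖ = 1 := fun x => by
    rw [norm_mul, norm_inv, norm_hom_eq_one, norm_hom_eq_one]; norm_num
  have h2 := re_gt_of_arcSix_eq (hn a) (hn b) (congrFun hF ⟨lam, Finset.mem_erase.2 ⟨h1, hl⟩⟩)
  refine norm_sub_one_lt_of_re (hn _) ?_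
  convert h2 using 2
  simp only [map_mul, map_inv, Units.val_mul, Units.val_inv_eq_inv_val]
  field_simp

end Arc

section Simple

/-- Blichfeldt: an abelian subgroup `H` of a simple group with a faithful irreducible character
having at most `k` distinct constituents on `H`, `6 ^ (k - 1) < |H|`, meets the centre. -/
theorem blich_simple {G : Type*} [Group G] [Finite G] [IsSimpleGroup G] {χ : G → ℂ}
    (hχ : IsIrrCharacter G χ) (hk : charKer χ = ⊥) (H : Subgroup G) [Fintype H]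
    (hH : ∀ a b : H, a * b = b * a) (Λ : Finset (H →* ℂˣ))
    (hΛ : ∀ lam : H →* ℂˣ, classInner (fun x : H => χ x) (fun x => (lam x : ℂ)) ≠ 0 → lam ∈ Λ)
    (hc : 6 ^ (Λ.card - 1) < Nat.card H) : ∃ h ∈ H, h ≠ 1 ∧ h ∈ Subgroup.center G := by
  obtain ⟨n, σ, hσ, hu⟩ := hχ.isCharacter.exists_unitary
  have hirr : σ.IsIrreducible := isIrreducible_of_isIrrCharacter σ (hσ ▸ hχ)
  obtain ⟨hnt, hsub⟩ := (isIrreducible_iff_submodule σ).1 hirr
  let ρ : Representation ℂ H (EuclideanSpace ℂ (Fin n)) := σ.comp H.subtype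
  have hρ : ρ.character = fun x : H => χ x := by
    funext x
    rw [← hσ]; rfl
  obtain ⟨lam₀, v₀, -, hv₀, hl₀⟩ :=
    exists_common_eigenvector ρ hH ⊤ (fun _ _ _ => Submodule.mem_top) top_ne_bot
  have h0 : lam₀ ∈ Λ := hΛ _ (hρ ▸ classInner_ne_zero_of_eigenvector ρ lam₀ hv₀ hl₀)
  obtain ⟨h, hh1, hcl⟩ := exists_close Λ h0 hc
  let τ : Representation ℂ (G × H) (EuclideanSpace ℂ (Fin n)) :=
    { toFun := fun x => (lam₀ x.2 : ℂ)⁻¹ • σ x.1
      map_one' := by simp
      map_mul' := fun x y => by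
        simp only [Prod.fst_mul, Prod.snd_mul, map_mul, Units.val_mul, mul_inv_rev,
          smul_mul_smul_comm]
        rw [mul_comm (lam₀ y.2 : ℂ)⁻¹] }
  have hτ : ∀ x v, τ x v = (lam₀ x.2 : ℂ)⁻¹ • σ x.1 v := fun x v => rfl
  have hτu : ∀ x v, ‖τ x v‖ = ‖v‖ := fun x v => by
    rw [hτ, norm_smul, norm_inv, norm_hom_eq_one, hu, inv_one, one_mul]
  have hl0 : ∀ k : H, (lam₀ k : ℂ) ≠ 0 := fun k => Units.ne_zero _
  have hs : ∀ v, v ≠ 0 → ‖τ ((h : G), h) v - v‖ < ‖v‖ := by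
    intro v hv
    have h1 := norm_repCL_sub_lt hτu ((h : G), h) 1 one_pos (fun μ w hw hμ => by
      have h2 : ρ h w = ((lam₀ h : ℂ) * μ) • w := by
        rw [mul_smul, ← hμ, hτ, smul_smul, mul_inv_cancel₀ (hl0 _), one_smul]; rfl
      obtain ⟨lam, hl, hlμ⟩ := exists_constituent_of_eigenvalue ρ hH hw h2
      have h3 := hcl lam (hΛ _ (hρ ▸ hl))
      rwa [hlμ, mul_comm, ← mul_assoc, inv_mul_cancel₀ (hl0 _), one_mul] at h3)
    have h2 := (repCL τ ((h : G), h) - algebraMap ℂ _ 1).le_opNorm v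
    rw [map_one, sub_apply, one_apply_eq_self, repCL_apply] at h2
    rw [map_one] at h1
    exact h2.trans_lt (by nlinarith [norm_pos_iff.2 hv])
  obtain ⟨U, hU0, hUs, t, ht, htU⟩ := blich_geo τ hτu ((h : G), h) hs hv₀ (by
    rw [hτ]
    have := hl₀ h
    change σ h v₀ = _ at this
    rw [this, smul_smul, inv_mul_cancel₀ (hl0 _), one_smul])
  let K : Subgroup G :=
    { carrier := {g | ∀ x ∈ U, σ g x ∈ U}
      mul_mem' := fun {a b} ha hb x hx => by rw [rep_mul_apply]; exact ha _ (hb x hx)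
      one_mem' := fun x hx => by simpa using hx
      inv_mem' := fun {a} ha x hx => by
        have h1 : ∀ m : ℕ, σ (a ^ m) x ∈ U := fun m => by
          induction m with
          | zero => simpa using hx
          | succ m ih => rw [pow_succ', rep_mul_apply]; exact ha _ ih
        have h2 : a⁻¹ = a ^ (orderOf a - 1) := by
          rw [inv_eq_iff_mul_eq_one, ← pow_succ', Nat.sub_add_cancel (orderOf_pos a),
            pow_orderOf_eq_one]
        rw [h2]; exact h1 _ }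
  have hh1' : (h : G) ≠ 1 := fun h' => hh1 (Subtype.ext h')
  have hK : K.normalCore = ⊤ := by
    refine (IsSimpleGroup.eq_bot_or_eq_top_of_normal _ inferInstance).resolve_left fun hb => ?_
    have h1 : (h : G) ∈ K.normalCore := fun b x hx => by
      have h2 := hUs ((b, 1) * ((h : G), h) * (b, 1)⁻¹) (isConj_iff.2 ⟨_, rfl⟩) x hx
      rw [hτ] at h2
      exact (U.smul_mem_iff (inv_ne_zero (hl0 _))).1 h2
    rw [hb] at h1
    exact hh1' h1
  have hU : U = ⊤ := (hsub U fun g x hx =>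
    K.normalCore_le (hK ▸ Subgroup.mem_top g) x hx).resolve_left hU0
  obtain ⟨c, rfl⟩ := isConj_iff.1 ht
  have h1 : c.1 * h * c.1⁻¹ ∈ Subgroup.center G := by
    refine hχ.isCharacter.charCenter_le_center hk ?_
    rw [← hσ, mem_charCenter_rep]
    refine ⟨lam₀ (c * ((h : G), h) * c⁻¹).2, LinearMap.ext fun x => ?_⟩
    have h2 := htU x (hU ▸ Submodule.mem_top)
    rw [hτ] at h2
    rw [LinearMap.smul_apply, LinearMap.id_apply]
    conv_rhs => rw [← h2, smul_smul, mul_inv_cancel₀ (hl0 _), one_smul]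
    rfl
  refine ⟨h, h.2, hh1', ?_⟩
  have h2 := (Subgroup.normal_of_characteristic (Subgroup.center G)).conj_mem _ h1 c.1⁻¹
  simpa [mul_assoc] using h2

end Simple

end H14
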