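import Cfsg.Agent.H37.F3K
/-! Words acting by matrices over the field with three elements: orbits on cosets of an elementary
abelian group, tables for Sylow subgroups, sums over all vectors. -/
set_option autoImplicit false
namespace H14.D8
open H71 H80 H49 H23.Fi Subgroup H37.F3

variable {G : Type*} [Group G]

/-- The codes act by the matrices of a list, with a default matrix. -/
noncomputable def acD (n : ℕ) (Ms : List (List ℕ)) (J : List ℕ) (c : ℕ) : ℕ → ℕ :=
  H37.F3.app n (nth Ms J c)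

section rep
variable {m : ℕ} {ρ : G →* E m} {g : ℕ → G} {f : ℕ → ℕ → ℕ}

theorem sem_evc (h : ∀ c, Sem m (f c) (ρ (gc g c))) (w : List ℕ) :
    Sem m (wapp f w) (ρ (evc g w)) := by
  induction w with
  | nil => rw [evc, evw_nil, map_one]; exact sem_id m
  | cons l w ih => rw [evc, evw_cons, map_mul]; exact (h l).comp ih

/-- Equality of words, tested on the basis. -/
noncomputable def eqA (m : ℕ) (f : ℕ → ℕ → ℕ) (u v : List ℕ) : Bool :=
  eqB m (wapp f u) (wapp f v)

theorem dec_eqA (hρ : Function.Injective ρ) (h : ∀ c, Sem m (f c) (ρ (gc g c))) :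
    Dec g (eqA m f) := fun u v e => hρ (eq_of_eqB (sem_evc h u) (sem_evc h v) e)

theorem ind_of_indV' {a : ℕ → G} (hf : ∀ i, Sem m (f i) (ρ (a i))) {Ts : List (List ℕ)} {k : ℕ}
    (h : indV m f Ts k = true) : Ind a k := fun i hi => by
  obtain ⟨h1, h2, h3, h4⟩ := bnd_iff.1 (of_allLt h i hi) |>.imp_right fun a =>
    bnd_iff.1 a |>.imp_right bnd_iff.1
  let π : G →* Equiv.Perm (V m) := (MulAction.toPermHom (E m)ˣ (V m)).comp ρ.toHomUnits
  have hπ : ∀ t v, π t v = ρ t v := fun _ _ => rfl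
  have key : ∀ (t : G) (y : ℕ), vec m y = ρ t (vec m (nth (nth Ts [] i) 0 0)) →
      allL (neV m y) (nth Ts [] i) = true → t ∉ setSt π (vec m '' {x | x ∈ nth Ts [] i}) :=
    fun t y e c hm => by
      obtain ⟨z, hz, e'⟩ := (hm _).2 ⟨_, mem_of_memB h2, rfl⟩
      exact ne_of_neV (of_allL c z hz) (e.trans ((hπ _ _).symm.trans e'.symm))
  refine ⟨_, fun j a b => mem_setSt ((List.finite_toSet _).image _) ?_, key _ _ (hf i _) h3,
    key _ _ ((hf i _).trans (by rw [map_mul, Module.End.mul_apply, hf i])) h4⟩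
  rintro _ ⟨x, hx, rfl⟩
  rcases bor_iff.1 (of_allLt h1 j b) with c | c
  · exact absurd (Nat.le_of_ble_eq_true c) (by omega)
  · exact ⟨_, mem_of_memB (of_allL c x hx), hf j x⟩

/-- A conjugation by a word in other generators. -/
noncomputable def cjA (m : ℕ) (fb f : ℕ → ℕ → ℕ) (Y : List (List ℕ)) (X : List ℕ) (j : ℕ)
    (u : List ℕ) : Bool :=
  bnd (Nat.blt j Y.length) (eqB m (wapp fb (H23.Fi.app X (nth Y [] j)))
    fun x => wapp f u (wapp fb X x))

theorem of_cjA (hρ : Function.Injective ρ) (h : ∀ c, Sem m (f c) (ρ (gc g c))) {b : ℕ → G}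
    {fb : ℕ → ℕ → ℕ} (hb : ∀ c, Sem m (fb c) (ρ (gc b c))) {H : Subgroup G} (hH : ∀ i, b i ∈ H)
    {Y : List (List ℕ)} {X u : List ℕ} {j : ℕ} (e : cjA m fb f Y X j u = true) :
    CjL H (gc b) Y (evc g u) := by
  obtain ⟨h1, h2⟩ := bnd_iff.1 e
  have := eq_of_eqB (sem_evc hb _) ((sem_evc h u).comp (sem_evc hb X)) h2
  rw [← map_mul, evc_app] at this
  exact ⟨_, nth_mem' (lt_of_blt h1), _, evc_mem' hH X, by rw [hρ this]; simp⟩

end rep

section aff
variable {n : ℕ} {β : Multiplicative (V n) →* G} {g : ℕ → G} {f : ℕ → ℕ → ℕ} {I : List ℕ}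

/-- The generators act on the coordinates by the given maps. -/
def RM (β : Multiplicative (V n) →* G) (g : ℕ → G) (f : ℕ → ℕ → ℕ) : Prop :=
  ∀ c, ∃ T, Rel β (gc g c) T ∧ Sem n (f c) T

theorem RM.evc (h : RM β g f) (u : List ℕ) : ∃ T, Rel β (evc g u) T ∧ Sem n (wapp f u) T := by
  induction u with
  | nil => exact ⟨1, Rel.one, sem_id n⟩
  | cons c u ih =>
    obtain ⟨S, h1, h2⟩ := h c
    obtain ⟨T, h3, h4⟩ := ih
    exact ⟨S * T, by rw [H37.F3.evc, evw_cons]; exact h1.mul h3, h2.comp h4⟩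

theorem rm_of_actB (B : Bas g I β) {e : List ℕ → List ℕ → Bool} (he : Dec g e)
    {Ms : List (List ℕ)} {J : List ℕ} (hJ : eqB n (H37.F3.app n J) (fun x => x) = true)
    (hm : ∀ c, Ms.length ≤ c → gc g c = 1)
    (h : allLt (fun c => actB e I c (acD n Ms J c) n) Ms.length = true) :
    RM β g (acD n Ms J) := fun c => by
  refine ⟨_, ?_, sem_app n _⟩
  by_cases hc : c < Ms.length
  · exact rel_of_actB B he (sem_app n _) (of_allLt h c hc)
  · rw [hm c (by omega), nth_eq_getD, List.getD_eq_default _ _ (by omega),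
      eq_of_eqB (sem_app n J) (sem_id n) hJ]
    exact Rel.one

/-- One step on the coset of `W`: a translation, or conjugation by a word. -/
noncomputable def stepM (e : List ℕ → List ℕ → Bool) (n : ℕ) (f : ℕ → ℕ → ℕ) (W : List ℕ)
    (s : List ℕ × ℕ × ℕ) : Bool :=
  bor (bnd (eqL s.1 []) (Nat.beq (add n s.2.1 (wapp f W s.2.2)) s.2.2))
    (bnd (Nat.beq s.2.1 0) (e (cjW s.1 W) W))

noncomputable def affG (n : ℕ) (f : ℕ → ℕ → ℕ) (St : List (List ℕ × ℕ × ℕ)) (k x : ℕ) : ℕ :=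
  (fun s : List ℕ × ℕ × ℕ => add n (wapp f s.1 x) s.2.1) (nth St ([], 0, 0) k)

/-- The orbits on the elements of order three in the coset of `W`. -/
noncomputable def affM (e : List ℕ → List ℕ → Bool) (n : ℕ) (f : ℕ → ℕ → ℕ) (W : List ℕ)
    (St : List (List ℕ × ℕ × ℕ)) (s l : List ℕ) : Bool :=
  bnd (e (H23.Fi.app W (H23.Fi.app W W)) []) (bnd (allL (stepM e n f W) St)
    (cover n (affG n f St) s l fun x =>
      isZ n (add n x (frc (wapp f W x) fun y => add n y (wapp f W y)))))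

theorem of_affM (hβ : Function.Injective β) (B : Bas g I β) (R : RM β g f)
    {e : List ℕ → List ℕ → Bool} (he : Dec g e) {W s l : List ℕ} {St : List (List ℕ × ℕ × ℕ)}
    (c : affM e n f W St s l = true) {H : Subgroup G}
    (hH : ∀ i, g i ∈ H) (v : V n) (hv : (bv β v * evc g W) ^ 3 = 1) :
    ∃ x ∈ s, CjH H (evc g (H23.Fi.app (nfw I x) W)) (bv β v * evc g W) := by
  obtain ⟨h1, h2, h4⟩ := bnd_iff.1 c |>.imp_right bnd_iff.1
  obtain ⟨T, hW, hT⟩ := R.evc W
  have h5 : evc g W ^ 3 = 1 := by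
    have := he _ _ h1
    rw [evc_app, evc_app] at this
    rw [pow_succ', pow_two]; exact this
  have hb : ∀ t, bv β t ∈ H := fun t => (KI_le.2 fun i _ => hH i) (B.range ▸ bv_mem β t)
  refine of_cover h4 (fun v => ∃ x ∈ s, CjH H (evc g (H23.Fi.app (nfw I x) W)) (bv β v * evc g W))
    (fun k y ⟨x, hx, a⟩ => ⟨x, hx, a.trans ?_⟩)
    (fun x hx => ⟨x, hx, by rw [evc_app, B.nf]; exact CjH.refl _ _⟩) v fun x e => ?_
  · have key : ∀ t : List ℕ × ℕ × ℕ, stepM e n f W t = true ∨ t = ([], 0, 0) →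
        CjH H (bv β (vec n y) * evc g W)
          (bv β (vec n (add n (wapp f t.1 y) t.2.1)) * evc g W) := by
      rintro ⟨X, u, t⟩ (h | h)
      · rw [vec_add]
        rcases bor_iff.1 h with h | h
        · obtain ⟨k1, k2⟩ := bnd_iff.1 h
          obtain rfl : X = [] := eq_of_eqL k1
          have k3 := congrArg (vec n) (beq_eq k2)
          rw [vec_add, hT] at k3
          exact ⟨_, hb _, conj_aff (rel_of_mem (bv_mem β _)) (conj_bv hW k3) _⟩
        · obtain ⟨k1, k2⟩ := bnd_iff.1 h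
          obtain rfl : u = 0 := beq_eq k1
          obtain ⟨S, hX, hS⟩ := R.evc X
          have k := he _ _ k2
          rw [evc_cjW] at k
          rw [hS]
          exact ⟨_, evc_mem' hH _, conj_aff hX (by rw [H37.F3.vec_zero, bv_zero, one_mul, k]) _⟩
      · obtain ⟨rfl, rfl, rfl⟩ := h
        rw [vec_add, H37.F3.vec_zero, add_zero]; exact CjH.refl _ _
    exact key _ ((nth_mem_or St _ k).imp_left (of_allL h2 _))
  · rw [cube_aff hW, h5, mul_one, ← e] at hv
    refine isZ_iff.2 ?_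
    rw [frc_eq, vec_add, vec_add, hT (wapp f W x), hT]
    exact bv_eq_one hβ hv

theorem of_leafM (hβ : Function.Injective β) (B : Bas g I β) (R : RM β g f)
    {e : List ℕ → List ℕ → Bool} (he : Dec g e) {W l : List ℕ} {St T : List (List ℕ × ℕ × ℕ)}
    (c : affM e n f W St (sds T) l = true) {H : Subgroup G}
    (hH : ∀ i, g i ∈ H) {P : G → Prop} (hP : ∀ x y, P x → CjH H x y → P y)
    (hT : ∀ t ∈ T, P (evc g (H23.Fi.app (nfw I t.2.1) W))) (v : V n)
    (hv : (bv β v * evc g W) ^ 3 = 1) : P (bv β v * evc g W) := by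
  obtain ⟨x, hx, a⟩ := of_affM hβ B R he c hH v hv
  obtain ⟨t, ht, rfl⟩ := mem_sds hx
  exact hP _ _ (hT t ht) a

/-- The cube of the word moves a vector. -/
noncomputable def ncM (n : ℕ) (f : ℕ → ℕ → ℕ) (W : List ℕ) (x : ℕ) : Bool :=
  neV n (wapp f W (wapp f W (wapp f W x))) x

theorem not_cubeM (hβ : Function.Injective β) (R : RM β g f) {W : List ℕ} {x : ℕ}
    (h : ncM n f W x = true) (v : V n) : (evc g W * bv β v) ^ 3 ≠ 1 := fun e => by
  obtain ⟨T, hW, hT⟩ := R.evc W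
  have h1 := hW.mul (rel_of_mem (bv_mem β v))
  have h2 := h1.mul (h1.mul h1)
  rw [← pow_two, ← pow_succ', e, mul_one] at h2
  refine ne_of_neV h ?_
  rw [hT, hT, hT]
  exact LinearMap.congr_fun (h2.unique hβ Rel.one) _

/-- An entry of the table: the coset, the number of its representative, the conjugating word. -/
noncomputable def entM (e : List ℕ → List ℕ → Bool) (Ip : List ℕ) (Wl : List (List ℕ)) (t : ℕ) :
    Bool :=
  (fun j X => bnd (Nat.blt j Wl.length) (e (H23.Fi.app X (nfw Ip (Nat.land t 4095)))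
    (H23.Fi.app (nth Wl [] j) X))) (Nat.land (Nat.shiftRight t 12) 7) (decB 6 (Nat.shiftRight t 15))

/-- The table that moves the cosets in a 3-group to a short list of cosets. -/
noncomputable def tabM (e : List ℕ → List ℕ → Bool) (n : ℕ) (f : ℕ → ℕ → ℕ) (Ip : List ℕ) (k : ℕ)
    (Wl : List (List ℕ)) (x : ℕ) (T : List ℕ) : Bool :=
  bnd (allL (entM e Ip Wl) T) (frc (H80.maskL (mapL (fun t => Nat.land t 4095) T)) fun O =>
    allV k fun c => bor (tb O c) (ncM n f (nfw Ip c) x))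

theorem mem_mapL {φ : ℕ → ℕ} {L : List ℕ} {x : ℕ} (h : x ∈ mapL φ L) : ∃ t ∈ L, φ t = x := by
  induction L with
  | nil => exact absurd h (by simp [mapL])
  | cons t T ih =>
    rcases List.mem_cons.1 h with rfl | h
    · exact ⟨t, by simp, rfl⟩
    · obtain ⟨s, h1, h2⟩ := ih h; exact ⟨s, by simp [h1], h2⟩

theorem of_tabM [Finite G] (hβ : Function.Injective β) (B : Bas g I β) (R : RM β g f)
    {e : List ℕ → List ℕ → Bool} (he : Dec g e) {Wl : List (List ℕ)} {L : List (List ℕ × List ℕ)}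
    (hL : Holds g L) {Ip T : List ℕ} (hp : pcB L Ip I = true) {k z : ℕ} (hk : Ip.length = k)
    (ht : tabM e n f Ip k Wl z T = true) {H : Subgroup G}
    (hH : ∀ i, g i ∈ H) {x : G} (hx : x ∈ KI g (Ip ++ I)) (h3 : x ^ 3 = 1) :
    ∃ W ∈ Wl, ∃ v, CjH H x (bv β v * evc g W) := by
  obtain ⟨h1, h2⟩ := bnd_iff.1 ht
  rw [frc_eq] at h2
  obtain ⟨c, hc, y, hy, rfl⟩ := forall_of_pcB hL hp hk h2 hx
  rw [← B.range] at hy
  obtain ⟨v, rfl⟩ := exists_bv hy
  rcases bor_iff.1 hc with hc | hc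
  · rw [tb_eq, H80.testBit_maskL] at hc
    obtain ⟨t, ht, rfl⟩ := mem_mapL hc
    obtain ⟨h4, h5⟩ := bnd_iff.1 (of_allL h1 t ht)
    have h6 := he _ _ h5
    rw [evc_app, evc_app] at h6
    obtain ⟨S, hX, -⟩ := R.evc (decB 6 (Nat.shiftRight t 15))
    obtain ⟨U, hW, -⟩ := R.evc (nth Wl [] (Nat.land (Nat.shiftRight t 12) 7))
    refine ⟨_, nth_mem' (d := []) (lt_of_blt h4), U (S v), _, evc_mem' hH (decB 6 (Nat.shiftRight t 15)), ?_⟩
    rw [← hW, ← hX, ← mul_assoc, h6]; group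
  · exact absurd h3 (not_cubeM hβ R hc v)

theorem card_pcM [Finite G] (hβ : Function.Injective β) (B : Bas g I β)
    {L : List (List ℕ × List ℕ)} (hL : Holds g L) {Ip : List ℕ} (hp : pcB L Ip I = true) {k : ℕ}
    (hk : (Ip ++ I).length = k) (hn : I.length = n) (h : Ind (fun j => g (nth (Ip ++ I) 0 j)) k) :
    Nat.card (KI g (Ip ++ I)) = 3 ^ k := by
  have h1 := (of_pcB hL hp).1
  rw [← B.range, card_range hβ, ← pow_add, ← hn, ← List.length_append, hk] at h1
  exact le_antisymm (Nat.le_of_dvd (by positivity) h1) (h.card_KI hk)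

end aff

/-- The sum over all codes of vectors. -/
noncomputable def sumV (n : ℕ) : (ℕ → ℕ) → ℕ :=
  Nat.rec (motive := fun _ => (ℕ → ℕ) → ℕ) (fun f => f 0)
    (fun _ ih f => ih fun x => frc (Nat.mul 4 x) fun y =>
      Nat.add (f y) (Nat.add (f (Nat.succ y)) (f (Nat.succ (Nat.succ y))))) n

theorem sumV_eq (n : ℕ) (f : ℕ → ℕ) : sumV n f = ∑ v : V n, f (cd n v) := by
  induction n generalizing f with
  | zero => rw [Fintype.sum_unique]; rfl
  | succ n ih =>
    refine (ih _).trans ?_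
    rw [← (Fin.consEquiv fun _ : Fin (n + 1) => ZMod 3).sum_comp, Fintype.sum_prod_type,
      Finset.sum_comm]
    refine Finset.sum_congr rfl fun v _ => ?_
    have key : ∀ c : ZMod 3, cd (n + 1) (Fin.consEquiv (fun _ => ZMod 3) (c, v)) =
        4 * cd n v + c.val := fun c => add_comm c.val (4 * cd n v)
    rw [frc_eq]
    simp only [key]
    exact (Fin.sum_univ_three fun c : Fin 3 => f (4 * cd n v + ZMod.val (n := 3) c)).symm ▸
      (add_assoc _ _ _).symm

theorem cd_app (n : ℕ) (M : List ℕ) (x : ℕ) :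
    cd M.length (vec M.length (H37.F3.app n M x)) = H37.F3.app n M x := by
  rw [H37.F3.app, frc_eq, frc_eq]
  induction M with
  | nil => rfl
  | cons r M ih => exact (cd_cons _ _ _ (dot_lt _ _ _)).trans (by rw [ih]; rfl)

end H14.D8
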