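import Cfsg.Agent.H14.D8B
import Cfsg.Agent.H41.AutExt
/-! The thirteen classes of subgroups of order three of the simple group of type D4 over the field
with three elements, and the action of the automorphism group on them. -/
set_option Elab.async false
set_option maxRecDepth 100000
set_option autoImplicit false
namespace H14.D8
open H71 H80 H49 H23.Fi Subgroup H37.F3 Cfsg

/-- The pair of points with a given number. -/
def pr : Fin 13 → Fin 4 × Fin 4 :=
  ![(0, 0), (0, 0), (0, 0), (0, 0), (1, 1), (2, 2), (3, 3), (0, 1), (0, 2), (0, 3), (1, 2), (1, 3),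
    (2, 3)]

/-- The number of a pair of points. -/
def np : Fin 4 → Fin 4 → Fin 13 := ![![3, 7, 8, 9], ![7, 4, 10, 11], ![8, 10, 5, 12], ![9, 11, 12, 6]]

/-- The action on three fixed labels, four points and six pairs. -/
def act4 (s : Equiv.Perm (Fin 4)) (j : Fin 13) : Fin 13 :=
  if j < 3 then j else np (s (pr j).1) (s (pr j).2)

def Phi : Equiv.Perm (Fin 4) →* Equiv.Perm (Fin 13) :=
  MonoidHom.toHomPerm
    { toFun := act4
      map_one' := funext (by decide +kernel)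
      map_mul' := fun s t => funext ((by decide +kernel :
        ∀ s t j, act4 (s * t) j = act4 s (act4 t j)) s t) }

theorem Phi_apply (s : Equiv.Perm (Fin 4)) (j : Fin 13) : Phi s j = act4 s j := rfl

theorem Phi_injective : Function.Injective Phi :=
  (injective_iff_map_eq_one _).2 fun s h =>
    (by decide +kernel : ∀ s, (∀ j, act4 s j = j) → s = 1) s fun j => by rw [← Phi_apply, h]; rfl

def s1 : Equiv.Perm (Fin 4) := Equiv.swap 1 3 * Equiv.swap 2 3
def s2 : Equiv.Perm (Fin 4) := Equiv.swap 1 2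
def s3 : Equiv.Perm (Fin 4) := Equiv.swap 0 3 * Equiv.swap 1 2

theorem gen4 : ∀ s : Equiv.Perm (Fin 4), ∃ i j l : Fin 2, ∃ k : Fin 3,
    s = s3 ^ (i : ℕ) * (s1 * s3 * s1⁻¹) ^ (j : ℕ) * s1 ^ (k : ℕ) * s2 ^ (l : ℕ) := by
  decide +kernel

/-- Representatives of the orbits of a point stabiliser. -/
def rp : Fin 4 → Fin 7 → Fin 13 :=
  ![![0, 1, 2, 3, 4, 7, 10], ![0, 1, 2, 3, 4, 7, 8], ![0, 1, 2, 3, 5, 7, 8], ![0, 1, 2, 3, 6, 7, 9]]

theorem rp_spec : ∀ i : Fin 4, (∀ j, ∃ k s, s i = i ∧ act4 s j = rp i k) ∧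
    ∀ k l s, s i = i → act4 s (rp i k) = rp i l → k = l := by decide +kernel

theorem orbits {G T : Type*} [Group G] [Group T] (y : Fin 13 → T) (o3 : ∀ i, orderOf (y i) = 3)
    (hc : ∀ x, x ^ 3 = 1 → x ≠ 1 → ∃ i, IsConj (y i) x)
    (hi : ∀ i j, CJ (zpowers (y i)) (zpowers (y j)) → i = j) (ψ : Out T ≃* Equiv.Perm (Fin 4))
    (ha : ∀ s ∈ [s1, s2, s3], ∃ θ : MulAut T, ∀ j, IsConj (y (act4 s j)) (θ (y j)))
    (L : Subgroup G) [L.Normal] (e : L ≃* T) (hz : centralizer (L : Set G) = ⊥)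
    (hq : Nat.card (G ⧸ L) = 6) :
    ∃ Y : Fin 7 → Subgroup G, (∀ i, Y i ≤ L ∧ Nat.card (Y i) = 3) ∧
      (∀ i j, (∃ g : G, (Y i).map (MulAut.conj g).toMonoidHom = Y j) → i = j) ∧
      ∀ X : Subgroup G, X ≤ L → Nat.card X = 3 →
        ∃ i, ∃ g : G, X.map (MulAut.conj g).toMonoidHom = Y i := by
  have hu : ∀ {i j x}, IsConj (y i) x → IsConj (y j) x → i = j := fun a c => by
    obtain ⟨g, hg⟩ := isConj_iff.1 (a.trans c.symm)
    exact hi _ _ (CJ.of_conj hg)
  choose f hf using fun (α : MulAut T) j => hc (α (y j))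
    (by rw [← map_pow, ← o3 j, pow_orderOf_eq_one, map_one])
    fun h => by have := o3 j; rw [α.injective (h.trans (map_one α).symm)] at this; simp at this
  let φ : MulAut T →* Equiv.Perm (Fin 13) := MonoidHom.toHomPerm
    { toFun := f
      map_one' := funext fun j => hu (hf 1 j) (IsConj.refl _)
      map_mul' := fun α β => funext fun j => hu (hf (α * β) j)
        ((hf α (f β j)).trans ((α : T →* T).map_isConj (hf β j))) }
  let χ : Out T →* Equiv.Perm (Fin 13) := QuotientGroup.lift _ φ (by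
    rintro _ ⟨t, rfl⟩
    exact Equiv.ext fun j => hu (hf _ j) (isConj_iff.2 ⟨t, rfl⟩))
  have h1 : Phi.range ≤ χ.range := by
    have k : ∀ s ∈ [s1, s2, s3], s ∈ χ.range.comap Phi := fun s hs => by
      obtain ⟨θ, hθ⟩ := ha s hs
      exact ⟨QuotientGroup.mk θ, Equiv.ext fun j => hu (hf θ j) (hθ j)⟩
    rintro _ ⟨s, rfl⟩
    obtain ⟨i, j, l, m, rfl⟩ := gen4 s
    have k1 := k s1 (by simp)
    have k3 := k s3 (by simp)
    exact mul_mem (S := Subgroup _) (M := Equiv.Perm (Fin 4)) (s := χ.range.comap Phi)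
      (mul_mem (mul_mem (pow_mem k3 _)
      (pow_mem (mul_mem (mul_mem k1 k3) (inv_mem k1)) _)) (pow_mem k1 _)) (pow_mem (k s2 (by simp)) _)
  haveI : Finite (Out T) := Finite.of_equiv _ ψ.symm.toEquiv
  have h2 : Nat.card (Out T) ≤ Nat.card Phi.range := by
    rw [Nat.card_congr ψ.toEquiv, Nat.card_congr (MonoidHom.ofInjective Phi_injective).toEquiv]
  have h3 := Nat.card_le_card_of_surjective _ χ.rangeRestrict_surjective
  have h4 : Phi.range = χ.range := eq_of_le_of_card_ge h1 (h3.trans h2)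
  have h5 : Function.Injective χ := Subtype.val_injective.comp
    (χ.rangeRestrict_surjective.bijective_of_nat_card_le (h4 ▸ h2)).1
  let M := (H41.outHom L e).range.map χ
  have h6 : (M.comap Phi).map Phi = M := map_comap_eq_self (h4 ▸ map_le_range _ _)
  obtain ⟨i, h7⟩ := H41.eq_stabilizer_of_card_six (M.comap Phi) (by
    rw [← card_map_of_injective Phi_injective, h6, card_map_of_injective h5,
      H41.card_range_outHom L e hz, hq])
  have h8 : ∀ s, s i = i → ∃ g, ∀ j, f (H41.autHom L e g) j = act4 s j := fun s hs => by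
    obtain ⟨_, ⟨g, rfl⟩, k⟩ := h7.ge (MulAction.mem_stabilizer_iff.2 hs)
    exact ⟨g, fun j => congrArg (· j) k⟩
  have h9 : ∀ g, ∃ s, s i = i ∧ ∀ j, act4 s j = f (H41.autHom L e g) j := fun g => by
    obtain ⟨s, hs, k⟩ := h6.ge ⟨_, ⟨g, rfl⟩, rfl⟩
    exact ⟨s, h7.le hs, fun j => congrArg (· j) k⟩
  let ι : T →* G := L.subtype.comp e.symm.toMonoidHom
  have hι : Function.Injective ι := Subtype.val_injective.comp e.symm.injective
  have hg : ∀ g t, ι (H41.autHom L e g t) = g * ι t * g⁻¹ := fun g t => by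
    obtain ⟨x, rfl⟩ := e.surjective t
    rw [H41.autHom_apply]; simp [ι]
  refine ⟨fun k => zpowers (ι (y (rp i k))), fun k => ⟨zpowers_le.2 (e.symm _).2, by
    rw [Nat.card_zpowers, orderOf_injective ι hι, o3]⟩, fun k l ⟨g, c⟩ => ?_, fun X hX h3 => ?_⟩
  · obtain ⟨s, hs, k1⟩ := h9 g
    refine (rp_spec i).2 k l s hs ((k1 _).trans (hi _ _ ?_))
    beta_reduce at c
    rw [map_conj_zpowers, ← hg, ← MonoidHom.map_zpowers, ← MonoidHom.map_zpowers] at c
    obtain ⟨a, ha⟩ := isConj_iff.1 (hf (H41.autHom L e g) (rp i k))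
    exact map_injective hι c ▸ CJ.of_conj ha
  · obtain ⟨x, k1, k2, rfl⟩ := exists_gen3 h3
    obtain ⟨t, rfl⟩ : ∃ t, ι t = x := ⟨e ⟨x, zpowers_le.1 hX⟩, by simp [ι]⟩
    obtain ⟨j, c⟩ := hc t (hι (by rw [map_pow, k1, map_one])) fun h => k2 (by rw [h, map_one])
    obtain ⟨k, s, hs, k3⟩ := (rp_spec i).1 j
    obtain ⟨g, k4⟩ := h8 s hs
    obtain ⟨a, ha⟩ := isConj_iff.1 ((hf (H41.autHom L e g) j).trans
      ((H41.autHom L e g : T →* T).map_isConj c)).symm
    refine ⟨k, ι a * g, ?_⟩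
    beta_reduce
    rw [map_conj_zpowers, ← k3, ← k4, ← ha, map_mul, map_mul, map_inv]
    exact congrArg zpowers (by rw [MonoidHom.coe_coe, hg]; group)


def Mw : List (List ℕ) :=
  [[1, 20, 16, 64, 256, 1024, 6144, 16384], [21, 20, 16, 64, 256, 1536, 6144, 16384], [39253,
    19012, 43408, 6464, 256, 1536, 4608, 23040], [5, 4, 24656, 8256, 256, 1536, 4096, 24576], [5,
    4, 36944, 4160, 256, 1536, 4096, 24576], [5, 4, 20624, 8256, 256, 1536, 4096, 20480], [5, 4,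
    41104, 4160, 256, 1536, 4096, 20480], [5, 4, 80, 64, 256, 1536, 4096, 24576], [5, 4, 16400,
    8256, 256, 1536, 4096, 16384], [1, 4, 24656, 8256, 256, 1024, 4096, 24576], [1, 4, 36944, 4160,
    256, 1024, 4096, 24576], [5, 4, 32784, 4160, 256, 1536, 4096, 16384], [5, 4, 144, 64, 256,
    1536, 4096, 20480]]

def Nv : List ℕ :=
  [216, 18, 36, 0, 54, 54, 0, 0, 0, 216, 270, 0, 0]

def SL : List ℕ :=
  [0, 1, 12, 13, 14, 15, 16, 17, 24, 25, 26, 27, 28, 29, 36, 37]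

def tsig : List ℕ :=
  [14, 15, 0, 0, 0, 0, 0, 0, 0, 0, 0, 0, 12, 13, 16, 17, 0, 1, 0, 0, 0, 0, 0, 0, 24, 25, 28, 29,
    36, 37, 0, 0, 0, 0, 0, 0, 26, 27]

def Xsig : List (List ℕ) :=
  [[], [5, 40, 34, 23], [1, 13, 30, 38, 12, 16], [], [12, 24, 12], [], [12, 24, 12], [], [], [],
    [12, 24, 12], [12, 24, 12], []]

def ttau : List ℕ :=
  [0, 1, 0, 0, 0, 0, 0, 0, 0, 0, 0, 0, 12, 13, 16, 17, 14, 15, 0, 0, 0, 0, 0, 0, 24, 25, 28, 29,
    26, 27, 0, 0, 0, 0, 0, 0, 36, 37]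

def Xtau : List (List ℕ) :=
  [[], [], [16, 15], [], [], [], [], [], [], [], [2, 38, 2], [], []]

def tdl : List ℕ :=
  [1, 0, 0, 0, 0, 0, 0, 0, 0, 0, 0, 0, 12, 13, 14, 15, 16, 17, 0, 0, 0, 0, 0, 0, 24, 25, 26, 27,
    28, 29, 0, 0, 0, 0, 0, 0, 37, 36]

def Xdl : List (List ℕ) :=
  [[], [22, 34, 22], [27, 32, 12, 16, 15, 34], [12, 24, 12], [12, 24, 12], [12, 24, 12], [12, 24,
    12], [12, 24, 12], [12, 24, 12], [], [], [12, 24, 12], [12, 24, 12]]

/-- The number of fixed vectors of norm one of a matrix. -/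
noncomputable def cnt (M : List ℕ) : ℕ :=
  sumV 8 fun x => Bool.rec (motive := fun _ => ℕ) 0 1
    (bnd (Nat.beq (dot 85 x (Nat.shiftRight x 8)) 1) (Nat.beq (H37.F3.app 8 M x) x))

theorem cY : ∀ j : Fin 13, eqB 8 (H37.F3.app 8 (nth Mw [] j)) (wapp fb (nth Yl [] j)) = true ∧
    (nth Mw [] j).length = 8 ∧ cnt (nth Mw [] j) = nth Nv 0 j ∧ allL (memB SL) (nth Yl [] j) = true ∧
    eqA 8 fb (H23.Fi.app (nth Yl [] j) (H23.Fi.app (nth Yl [] j) (nth Yl [] j))) [] = true ∧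
    neV 8 (wapp fb (nth Yl [] j) 5120) 5120 = true := by decide +kernel

theorem cS : ∀ i j : Fin 13, nth Nv 0 i = nth Nv 0 j → nth Nv 0 (act4 s1 i) = nth Nv 0 (act4 s1 j) →
    nth Nv 0 (act4 s1 (act4 s1 i)) = nth Nv 0 (act4 s1 (act4 s1 j)) → i = j := by decide +kernel

/-- The translated words are conjugate to the words of the list. -/
def CX (s : Equiv.Perm (Fin 4)) (t : List ℕ) (X : List (List ℕ)) : Prop :=
  ∀ j : Fin 13, eqA 8 fb (H23.Fi.app (nth X [] j) (nth Yl [] (act4 s j)))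
    (H23.Fi.app (mapL (nth t 0) (nth Yl [] j)) (nth X [] j)) = true

theorem cX1 : CX s1 tsig Xsig := by unfold CX; decide +kernel
theorem cX2 : CX s2 ttau Xtau := by unfold CX; decide +kernel
theorem cX3 : CX s3 tdl Xdl := by unfold CX; decide +kernel

open H58 H56 H63 H65 Cfsg.Lie

/-- The translation of codes describes the diagram symmetry and the signs. -/
def CT (π : ℕ → ℕ) (d : Fin 4 → (ZMod 3)ˣ) (t : List ℕ) : Prop :=
  ∀ c ∈ SL, ∃ i : Fin 4, sg (nth t 0 c) = d i * sg c ∧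
    (nth RT 24 (c / 2) = chevD4.simple i ∧ nth RT 24 (nth t 0 c / 2) = chevD4.simple (π i) ∨
      nth RT 24 (c / 2) = chevD4.neg (chevD4.simple i) ∧
        nth RT 24 (nth t 0 c / 2) = chevD4.neg (chevD4.simple (π i)))

theorem cT1 : CT H68.piD4 1 tsig := by unfold CT; decide +kernel
theorem cT2 : CT (fun i => [0, 1, 3, 2].getD i 0) 1 ttau := by unfold CT; decide +kernel
theorem cT3 : CT id ![-1, 1, 1, 1] tdl := by unfold CT; decide +kernel

end H14.D8
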