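import Cfsg.Agent.H14.D8C
/-! The thirteen classes of subgroups of order three of the simple group of type D4 over the field
with three elements. -/
set_option autoImplicit false
namespace H14.D8
open H71 H80 H49 H23.Fi Subgroup H37.F3 Cfsg H58 H56 H63 H65 Cfsg.Lie

/-- The number of fixed vectors of norm one. -/
noncomputable def nfx (k : O8) : ℕ := Nat.card {v // qPlus 4 (ZMod 3) v = 1 ∧ k v = v}

theorem nfx_conj (a k : O8) : nfx (a * k * a⁻¹) = nfx k :=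
  (Nat.card_congr (Equiv.subtypeEquiv (MulAction.toPerm a) fun v => by
    show _ ↔ qPlus 4 (ZMod 3) (a v) = 1 ∧ (a * k * a⁻¹) (a v) = a v
    rw [O.map_Q, O.mul_apply, O.mul_apply, O.inv_apply_apply]
    exact and_congr_right' (MulAction.injective a).eq_iff.symm)).symm

theorem nfx_inv (k : O8) : nfx k⁻¹ = nfx k :=
  Nat.card_congr (Equiv.subtypeEquivRight fun v => by rw [O.inv_apply_eq, eq_comm (a := v)])

theorem nfx_eq {M : List ℕ} {k : O8} (hM : M.length = 8) (h : Sem 8 (H37.F3.app 8 M) (en k)) :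
    nfx k = cnt M := by
  let ε := finSumFinEquiv (m := 4) (n := 4)
  rw [cnt, sumV_eq, nfx, Nat.card_eq_fintype_card, Fintype.card_subtype, Finset.card_filter,
    ← (Equiv.arrowCongr ε.symm (Equiv.refl (ZMod 3))).sum_comp]
  refine Finset.sum_congr rfl fun v _ => ?_
  have h1 : Nat.beq (dot 85 (cd 8 v) (Nat.shiftRight (cd 8 v) 8)) 1 = true ↔
      qPlus 4 (ZMod 3) (v ∘ ε) = 1 := by
    have e : ((dot 85 (cd 8 v) (Nat.shiftRight (cd 8 v) 8) : ℕ) : ZMod 3) =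
        qPlus 4 (ZMod 3) (v ∘ ε) := by
      have e2 : Nat.shiftRight (cd 8 v) 8 = cd 8 v / 4 ^ 4 := Nat.shiftRight_eq_div_pow _ 8
      rw [show 85 = msk 4 from rfl, cast_dot, qPlus_apply, e2]
      conv_rhs => rw [← vec_cd 8 v]
      refine Finset.sum_congr rfl fun i _ => ?_
      simp only [H37.F3.vec, Nat.div_div_eq_div_mul, ← pow_add]
      rfl
    rw [← e, Nat.beq_eq]
    exact ⟨fun a => by rw [a]; rfl, fun a => cast_inj (dot_lt _ _ _) (by norm_num) a⟩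
  have h2 : Nat.beq (H37.F3.app 8 M (cd 8 v)) (cd 8 v) = true ↔ k (v ∘ ε) = v ∘ ε := by
    have e := cd_app 8 M (cd 8 v)
    rw [hM, h.cd, en_apply] at e
    rw [← e, Nat.beq_eq]
    exact ⟨fun a => by simpa [ε, Function.comp_assoc] using congrArg (· ∘ ε) (cd_inj a),
      fun a => by rw [a]; simp [ε, Function.comp_assoc]⟩
  split_ifs with c
  · rw [bnd_iff.2 ⟨h1.2 c.1, h2.2 c.2⟩]
  · rw [Bool.eq_false_iff.2 fun a => c ((bnd_iff.1 a).imp h1.1 h2.1)]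

theorem eq3 {H K : Type*} [Group H] [Group K] {ψ : H →* K}
    (hk : ∀ z ∈ ψ.ker, z ∈ center H ∧ z * z = 1) {u v : H} (hu : u ^ 3 = 1) (hv : v ^ 3 = 1)
    (e : ψ u = ψ v) : u = v := by
  obtain ⟨h1, h2⟩ := hk (u⁻¹ * v) (by rw [MonoidHom.mem_ker, map_mul, map_inv, e, inv_mul_cancel])
  have h3 : Commute u (u⁻¹ * v) := mem_center_iff.1 h1 u
  have h4 := h3.mul_pow 3
  rw [mul_inv_cancel_left, hu, hv, one_mul, pow_succ', pow_two, h2, mul_one] at h4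
  exact inv_mul_eq_one.1 h4.symm

theorem evc_tr {A B : Type*} [Group A] [Group B] (a : ℕ → A) (φ ψ : A →* B) {S : List ℕ} {t : ℕ → ℕ}
    (h : ∀ c ∈ S, φ (gc a c) = ψ (gc a (t c))) (w : List ℕ) (hw : ∀ c ∈ w, c ∈ S) :
    φ (evc a w) = ψ (evc a (mapL t w)) := by
  induction w with
  | nil => exact (map_one φ).trans (map_one ψ).symm
  | cons c w ih =>
    rw [show mapL t (c :: w) = t c :: mapL t w from rfl, evc, evc, evw_cons, evw_cons, map_mul,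
      map_mul, h c (hw c (by simp)), ih fun c hc => hw c (by simp [hc])]

theorem dat_tr {A : Type*} [Group A] {x : ℕ → ZMod 3 → A} {θ : MulAut A}
    {π : Fin chevD4.rank → Fin chevD4.rank} {d : Fin 4 → (ZMod 3)ˣ} {π' : ℕ → ℕ} {t : List ℕ}
    (h1 : Dat x θ π d 1) (h2 : ∀ i, (π i : ℕ) = π' i) (h3 : CT π' d t) (c : ℕ) (hc : c ∈ SL) :
    θ (x (nth RT 24 (c / 2)) (sg c)) = x (nth RT 24 (nth t 0 c / 2)) (sg (nth t 0 c)) := by
  obtain ⟨i, k1, k2⟩ := h3 c hc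
  have k3 := h1 (nd i) (sg c)
  rw [slaced_D4 _ (nd i) (π (nd i)), pow_one, h2, (by decide : ∀ u : (ZMod 3)ˣ, u⁻¹ = u)] at k3
  rw [k1]
  rcases k2 with ⟨k2, k4⟩ | ⟨k2, k4⟩ <;> rw [k2, k4]
  exacts [k3.1, k3.2]

theorem aut_tr {A B C : Type*} [Group A] [Group B] [Group C] (a : ℕ → A) (he : Dec a (eqA 8 fb))
    (ψ : A →* B) (e : B ≃* C) (θ : MulAut C) {t : List ℕ} {X : List (List ℕ)}
    {r : Equiv.Perm (Fin 4)} (k1 : ∀ c ∈ SL, θ (e (ψ (gc a c))) = e (ψ (gc a (nth t 0 c))))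
    (h4 : CX r t X) : ∃ θ : MulAut B, ∀ j : Fin 13,
      IsConj (ψ (evc a (nth Yl [] (act4 r j)))) (θ (ψ (evc a (nth Yl [] j)))) := by
  have k2 := evc_tr a ((θ : C →* C).comp ((e : B →* C).comp ψ)) ((e : B →* C).comp ψ) k1
  simp only [MonoidHom.comp_apply, MonoidHom.coe_coe] at k2
  refine ⟨e.trans (θ.trans e.symm), fun j => isConj_iff.2 ⟨ψ (evc a (nth X [] j)), ?_⟩⟩
  have k3 := he _ _ (h4 j)
  rw [evc_app, evc_app] at k3
  rw [MulEquiv.trans_apply, MulEquiv.trans_apply, k2 _ fun c hc =>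
    mem_of_memB (of_allL (cY j).2.2.2.1 c hc), MulEquiv.symm_apply_apply, ← map_mul, k3, map_mul,
    mul_inv_cancel_right]

/-- The commutator subgroup. -/
abbrev K8 : Type := commutator O8

/-- The projection onto the simple group. -/
noncomputable def ps : K8 →* H41.PO8 := piM _ (coe_qPlus 4 (ZMod 3))

theorem ps_surj : Function.Surjective ps := piM_surjective _ _

theorem ps_ker : ∀ z ∈ ps.ker, z ∈ center K8 ∧ z * z = 1 := fun z hz => by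
  rw [MonoidHom.mem_ker, ps, piM_eq_one_iff _ (qPlus_nondeg 4 _) (by simp), mem_PM] at hz
  refine ⟨(mem_center_commutator_iff (qPlus_nondeg 4 (ZMod 3)) (by simp) z).2 hz, Subtype.ext ?_⟩
  rcases hz with hz | hz <;> simp [hz, O.negOne_mul_self]

section
variable [RS chevD4] {b : ℕ → O8} (h : Mod b)

/-- The root elements in the commutator subgroup. -/
def Mod.a (i : ℕ) : K8 := ⟨b i, (h i).1⟩

/-- The representatives. -/
noncomputable def Mod.s (j : Fin 13) : K8 := evc h.a (nth Yl [] j)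

theorem Mod.ca (w : List ℕ) : ((evc h.a w : K8) : O8) = evc b w :=
  map_evc (commutator O8).subtype h.a w

theorem Mod.dec : Dec h.a (eqA 8 fb) := fun u v c =>
  Subtype.ext (by rw [h.ca, h.ca]; exact dec_eqA en_injective h.sem u v c)

theorem Mod.s3 (j : Fin 13) : h.s j ^ 3 = 1 := by
  have := h.dec _ _ (cY j).2.2.2.2.1
  rwa [evc_app, evc_app, ← pow_two, ← pow_succ'] at this

theorem Mod.o3 (i : Fin 13) : orderOf (ps (h.s i)) = 3 :=
  orderOf_eq_prime (by rw [← map_pow, h.s3, map_one]) fun c => ne_of_neV (cY i).2.2.2.2.2 (by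
    rw [sem_evc h.sem, ← h.ca, show evc h.a _ = 1 from eq3 ps_ker (h.s3 i) (one_pow 3)
      (c.trans (map_one ps).symm), OneMemClass.coe_one, map_one]; rfl)

theorem Mod.nN (j : Fin 13) : nfx (h.s j) = nth Nv 0 j := by
  rw [← (cY j).2.2.1]
  refine nfx_eq (cY j).2.1 ?_
  rw [Mod.s, h.ca, ← eq_of_eqB (sem_app 8 _) (sem_evc h.sem _) (cY j).1]
  exact sem_app 8 _

theorem Mod.cov (x : H41.PO8) (h3 : x ^ 3 = 1) (h1 : x ≠ 1) : ∃ i, IsConj (ps (h.s i)) x := by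
  obtain ⟨t, rfl⟩ := ps_surj x
  have h4 := (ps_ker (t ^ 3) (by rw [MonoidHom.mem_ker, map_pow, h3])).2
  have h5 : (t ^ 4) ^ 3 = 1 := by
    rw [← pow_mul, show 4 * 3 = (3 + 3) * 2 by norm_num, pow_mul, pow_add, h4, one_pow]
  have h6 : ps (t ^ 4) = ps t := by rw [map_pow, pow_succ, h3, one_mul]
  obtain ⟨w, hw, g, hg, c⟩ := h.cover (t ^ 4).2 (congrArg Subtype.val h5)
  have c' : (⟨g, hg⟩ : K8) * evc h.a w * ⟨g, hg⟩⁻¹ = t ^ 4 :=
    Subtype.ext (by rw [← c, Subgroup.coe_mul, Subgroup.coe_mul, h.ca]; rfl)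
  rcases (by decide : ∀ w ∈ Yl, w = [] ∨ ∃ i : Fin 13, Yl.getD i [] = w) w hw with rfl | ⟨i, rfl⟩
  · exact absurd (by rw [← h6, ← c', evc, evw_nil, mul_one, mul_inv_cancel, map_one]) h1
  · refine ⟨i, isConj_iff.2 ⟨ps ⟨g, hg⟩, ?_⟩⟩
    rw [← h6, ← c', map_mul, map_mul, map_inv, ← nth_eq_getD, Mod.s]

theorem Mod.nv {i j : Fin 13} (c : CJ (zpowers (ps (h.s i))) (zpowers (ps (h.s j)))) :
    nth Nv 0 i = nth Nv 0 j := by
  rw [← h.nN, ← h.nN]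
  rcases cj_zpowers (h.o3 j) c with ⟨g, -, c⟩ | ⟨g, -, c⟩ <;> obtain ⟨g, rfl⟩ := ps_surj g
  · rw [← eq3 ps_ker (u := g * h.s i * g⁻¹) (by rw [conj_pow, h.s3, mul_one, mul_inv_cancel])
      (h.s3 j) (by rw [map_mul, map_mul, map_inv, c])]
    exact (nfx_conj _ _).symm
  · rw [← nfx_inv (h.s j), ← InvMemClass.coe_inv, ← eq3 ps_ker (u := g * h.s i * g⁻¹)
      (v := (h.s j)⁻¹) (by rw [conj_pow, h.s3, mul_one, mul_inv_cancel])
      (by rw [inv_pow, h.s3, inv_one]) (by rw [map_mul, map_mul, map_inv, c, map_inv])]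
    exact (nfx_conj _ _).symm

theorem Mod.aut {C : Type*} [Group C] {x : ℕ → ZMod 3 → C} {e : H41.PO8 ≃* C}
    (hr : ∀ c, e (ps (gc h.a c)) = x (nth RT 24 (c / 2)) (sg c))
    {θ : MulAut C} {π : Fin chevD4.rank → Fin chevD4.rank}
    {d : Fin 4 → (ZMod 3)ˣ} {π' : ℕ → ℕ} {t : List ℕ} {X : List (List ℕ)}
    {r : Equiv.Perm (Fin 4)} (h1 : Dat x θ π d 1) (h2 : ∀ i, (π i : ℕ) = π' i)
    (h3 : CT π' d t) (h4 : CX r t X) :
    ∃ θ : MulAut H41.PO8, ∀ j, IsConj (ps (h.s (act4 r j))) (θ (ps (h.s j))) :=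
  aut_tr h.a h.dec ps e θ (fun c hc =>
    (congrArg θ (hr c)).trans ((dat_tr h1 h2 h3 c hc).trans (hr _).symm)) h4

end

theorem cj_aut {T : Type*} [Group T] (σ : MulAut T) {x y x' y' : T} (hx : IsConj x' (σ x))
    (hy : IsConj y' (σ y)) (c : CJ (zpowers x) (zpowers y)) : CJ (zpowers x') (zpowers y') := by
  obtain ⟨g, c⟩ := c
  obtain ⟨u, hx⟩ := isConj_iff.1 hx
  obtain ⟨v, hy⟩ := isConj_iff.1 hy
  refine cj_trans (CJ.of_conj hx) (cj_trans ⟨σ g, ?_⟩ (cj_symm (CJ.of_conj hy)))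
  rw [map_conj_zpowers] at c ⊢
  simpa [MonoidHom.map_zpowers] using congrArg (map (σ : T →* T)) c

theorem exists_model (F : Type) [Field F] [Finite F] : ∃ (_ : RS chevD4) (C : Type) (_ : Group C)
    (x : ℕ → F → C) (e : POmega F (quadFormPlus 4 F) ≃* C),
    (∀ r t (k : commutator (O (qPlus 4 F))), matO 4 F k = natD4.xU F r t →
      e (piM _ (coe_qPlus 4 F) k) = x r t) ∧
    (∃ θ π, Dat (D := chevD4) x θ π 1 1 ∧ ∀ i, (π i : ℕ) = H68.piD4 i) ∧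
    (∃ θ π, Dat (D := chevD4) x θ π 1 1 ∧ ∀ i, (π i : ℕ) = [0, 1, 3, 2].getD i 0) ∧
    ∀ d, ∃ θ, Dat (D := chevD4) x θ id d 1 := by
  obtain ⟨_, _, -, hA⟩ := ad_of_mem (D := chevD4) (by simp) F
  obtain ⟨e, he⟩ := exists_equiv_D4 (F := F)
  obtain ⟨θ, hθ⟩ := exists_graph hA slaced_D4 (mem_range_of_graphOK hA H68.graphD4)
  obtain ⟨τ, hτ⟩ := exists_graph hA slaced_D4 (mem_range_of_graphOK hA graphD4t)
  exact ⟨‹_›, _, _, _, e, he, ⟨θ, _, hθ, fun _ => rfl⟩, ⟨τ, _, hτ, fun _ => rfl⟩,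
    fun d => ⟨_, dat_diagAut d⟩⟩

theorem classes : ∃ y : Fin 13 → H41.PO8, (∀ i, orderOf (y i) = 3) ∧
    (∀ x, x ^ 3 = 1 → x ≠ 1 → ∃ i, IsConj (y i) x) ∧
    (∀ i j, CJ (zpowers (y i)) (zpowers (y j)) → i = j) ∧
    ∀ s ∈ [s1, s2, s3], ∃ θ : MulAut H41.PO8, ∀ j, IsConj (y (act4 s j)) (θ (y j)) := by
  obtain ⟨_, C, _, x, e, he, ⟨θ, π, hθ, hπ⟩, ⟨τ, ρ, hτ, hρ⟩, hd⟩ := exists_model (ZMod 3)
  obtain ⟨δ, hδ⟩ := hd ![-1, 1, 1, 1]
  obtain ⟨b, h⟩ := exists_mod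
  have hr : ∀ c, e (ps (gc h.a c)) = x (nth RT 24 (c / 2)) (sg c) := fun c =>
    he _ _ _ (by rw [← h.mat]; exact congrArg _ (map_gc (commutator O8).subtype h.a c))
  obtain ⟨σ, hσ⟩ := h.aut hr hθ hπ cT1 cX1
  refine ⟨fun j => ps (h.s j), h.o3, h.cov, fun i j c => ?_, ?_⟩
  · have c1 := cj_aut σ (hσ i) (hσ j) c
    exact cS i j (h.nv c) (h.nv c1) (h.nv (cj_aut σ (hσ _) (hσ _) c1))
  · simp only [List.mem_cons, List.not_mem_nil, or_false, forall_eq_or_imp, forall_eq]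
    exact ⟨⟨σ, hσ⟩, h.aut hr hτ hρ cT2 cX2, h.aut hr hδ (fun _ => rfl) cT3 cX3⟩

end H14.D8
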